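import Mathlib
import Cfsg.Agent.Lib.Helper70.OPar.Defs
import Cfsg.Agent.Lib.Helper38.OPar.Om1
import Cfsg.Agent.Lib.Helper84.OPar.PlusQ
import Cfsg.Agent.Lib.Helper87.OHyp.Perp
import Cfsg.Agent.Lib.Helper97.OHyp.OddOmega
import Cfsg.Agent.Lib.Helper47.OPar.UniGen

/-!
# OPAR (S5989): package [UNI1] (helper47)

`d` odd, `m ≡ 1 (mod 4)`: the unipotent element `x = diag(1 + a, (1 + a)⁻ᵀ)` of `Ω⁺_{2d}(q)`,
`a` nilpotent of Jordan type `(3, 2, …, 2)`, leaves no nondegenerate `m`-space invariant.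
-/

set_option autoImplicit false
open scoped MatrixGroups
open Matrix

namespace Cfsg.Agent.Lib.Helper47.OPar

open Cfsg.Agent.Lib.Helper70.OPar Cfsg.Agent.Lib.Helper23.OHyp

universe u

section nil

variable (F : Type u) [Field F]

/-- the nilpotent Jordan block of size 3 -/
def uJ3 : Matrix (Fin 3) (Fin 3) F := !![0,1,0; 0,0,1; 0,0,0]
/-- an elementary matrix -/
def uE10 : Matrix (Fin 3) (Fin 3) F := !![0,0,0; 1,0,0; 0,0,0]

theorem uJ3_cube : uJ3 F * uJ3 F * uJ3 F = 0 := by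
  ext i j
  fin_cases i <;> fin_cases j <;> simp [uJ3, Matrix.mul_apply, Fin.sum_univ_three]

theorem uJ3_hom : uJ3 F * uE10 F + (uJ3 F)ᵀ * uJ3 F = 1 := by
  ext i j
  fin_cases i <;> fin_cases j <;> simp [uJ3, uE10, Matrix.mul_apply, Fin.sum_univ_three]

theorem uJ3_sq : uJ3 F * uJ3 F = vecMulVec ![1,0,0] ![0,0,1] := by
  ext i j
  fin_cases i <;> fin_cases j <;> simp [uJ3, Matrix.mul_apply, Fin.sum_univ_three, vecMulVec_apply]

section
variable (k : ℕ)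

/-- Jordan type `(3, 2, …, 2)` -/
def ua0 : Matrix (Fin 3 ⊕ (Fin k ⊕ Fin k)) (Fin 3 ⊕ (Fin k ⊕ Fin k)) F :=
  fromBlocks (uJ3 F) 0 0 (fromBlocks 0 1 0 0)
/-- homotopy, right -/
def us0 : Matrix (Fin 3 ⊕ (Fin k ⊕ Fin k)) (Fin 3 ⊕ (Fin k ⊕ Fin k)) F :=
  fromBlocks (uE10 F) 0 0 (fromBlocks 0 0 1 0)
/-- homotopy, left -/
def ut0 : Matrix (Fin 3 ⊕ (Fin k ⊕ Fin k)) (Fin 3 ⊕ (Fin k ⊕ Fin k)) F :=
  fromBlocks (uJ3 F)ᵀ 0 0 (fromBlocks 0 0 1 0)

theorem ua0_sq : ua0 F k * ua0 F k = fromBlocks (uJ3 F * uJ3 F) 0 0 0 := by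
  simp [ua0, fromBlocks_multiply]

theorem ua0_cube : ua0 F k * ua0 F k * ua0 F k = 0 := by
  rw [ua0_sq]
  simp [ua0, fromBlocks_multiply, uJ3_cube]

theorem ua0_hom : ua0 F k * us0 F k + ut0 F k * ua0 F k = 1 := by
  simp [ua0, us0, ut0, fromBlocks_multiply, fromBlocks_add, uJ3_hom, fromBlocks_one]

theorem ua0_sq' : ua0 F k * ua0 F k = vecMulVec (Sum.elim ![1,0,0] 0) (Sum.elim ![0,0,1] 0) := by
  rw [ua0_sq]
  ext (i | i) (j | j)
  · fin_cases i <;> fin_cases j <;> simp [uJ3_sq, vecMulVec_apply]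
  · simp [vecMulVec_apply]
  · simp [vecMulVec_apply]
  · simp [vecMulVec_apply]

theorem ua0_ne : ua0 F k ≠ 0 := by
  intro h
  have := congrFun (congrFun h (Sum.inl 0)) (Sum.inl 1)
  simp [ua0, uJ3] at this
end

/-- a nilpotent matrix of Jordan type `(3, 2, …, 2)` with its witnesses -/
theorem exists_nil (d : ℕ) (hd : Odd d) (h3 : 3 ≤ d) :
    ∃ a s t : Matrix (Fin d) (Fin d) F, ∃ u w : Fin d → F,
      a * a * a = 0 ∧ a ≠ 0 ∧ a * s + t * a = 1 ∧ a * a = vecMulVec u w := by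
  obtain ⟨k, rfl⟩ : ∃ k, d = 3 + 2 * k := by
    obtain ⟨j, rfl⟩ := hd
    exact ⟨j - 1, by omega⟩
  let e : Fin 3 ⊕ (Fin k ⊕ Fin k) ≃ Fin (3 + 2 * k) :=
    Fintype.equivFinOfCardEq (by simp; omega)
  let φ := Matrix.reindexAlgEquiv F F e
  refine ⟨φ (ua0 F k), φ (us0 F k), φ (ut0 F k), Sum.elim ![1,0,0] 0 ∘ e.symm,
    Sum.elim ![0,0,1] 0 ∘ e.symm, ?_, ?_, ?_, ?_⟩
  · rw [← map_mul, ← map_mul, ua0_cube, map_zero]
  · intro h
    exact ua0_ne F k ((map_eq_zero_iff φ φ.injective).1 h)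
  · rw [← map_mul, ← map_mul, ← map_add, ua0_hom, map_one]
  · rw [← map_mul, ua0_sq']
    ext i j
    simp [φ, Matrix.coe_reindexAlgEquiv, vecMulVec_apply]

end nil

section alg

variable {F : Type u} [Field F] {d : ℕ}

/-- the inverse of `1 + a` is `1 + g`, `g = -a + a²` -/
theorem uni_inv (a : Matrix (Fin d) (Fin d) F) (ha3 : a * a * a = 0) :
    (1 + a) * (1 + (-a + a * a)) = 1 := by
  have h : (1 + a) * (1 + (-a + a * a)) = 1 + a * a * a := by noncomm_ring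
  rw [h, ha3, add_zero]

theorem uni_g_sq (a : Matrix (Fin d) (Fin d) F) (ha3 : a * a * a = 0) :
    (-a + a * a) * (-a + a * a) = a * a := by
  have h : (-a + a * a) * (-a + a * a) = a * a - a * a * a - a * a * a + a * a * a * a := by
    noncomm_ring
  rw [h, ha3]
  simp

theorem uni_g_cube (a : Matrix (Fin d) (Fin d) F) (ha3 : a * a * a = 0) :
    (-a + a * a) * (-a + a * a) * (-a + a * a) = 0 := by
  rw [uni_g_sq a ha3]
  have h : a * a * (-a + a * a) = -(a * a * a) + a * a * a * a := by noncomm_ring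
  rw [h, ha3]
  simp

theorem uni_g_hom (a s t : Matrix (Fin d) (Fin d) F) (ha3 : a * a * a = 0)
    (hst : a * s + t * a = 1) :
    (-a + a * a) * (-((1 + a + a * a) * s)) + (-(t * (1 + a + a * a))) * (-a + a * a) = 1 := by
  have h : (-a + a * a) * (-((1 + a + a * a) * s)) + (-(t * (1 + a + a * a))) * (-a + a * a)
      = (a * s + t * a) - a * a * a * (a * s) - t * a * (a * a * a) := by noncomm_ring
  rw [h, ha3, hst]
  simp

/-- the nilpotent part `N = x - 1` -/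
def uniN (a : Matrix (Fin d) (Fin d) F) : Matrix (Fin d ⊕ Fin d) (Fin d ⊕ Fin d) F :=
  fromBlocks a 0 0 (-a + a * a)ᵀ

theorem uniN_cube (a : Matrix (Fin d) (Fin d) F) (ha3 : a * a * a = 0) :
    uniN a * uniN a * uniN a = 0 := by
  unfold uniN
  rw [fromBlocks_multiply, fromBlocks_multiply]
  simp only [Matrix.mul_zero, Matrix.zero_mul, add_zero, zero_add, ← transpose_mul]
  rw [ha3]
  have h := uni_g_cube a ha3
  rw [mul_assoc] at h
  rw [h]
  simp

theorem uniN_sq (a : Matrix (Fin d) (Fin d) F) (ha3 : a * a * a = 0) :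
    uniN a * uniN a = fromBlocks (a * a) 0 0 (a * a)ᵀ := by
  unfold uniN
  rw [fromBlocks_multiply]
  simp only [Matrix.mul_zero, Matrix.zero_mul, add_zero, zero_add, ← transpose_mul]
  rw [uni_g_sq a ha3]

theorem uniN_hom (a s t : Matrix (Fin d) (Fin d) F) (ha3 : a * a * a = 0)
    (hst : a * s + t * a = 1) :
    ∃ S T : Matrix (Fin d ⊕ Fin d) (Fin d ⊕ Fin d) F, uniN a * S + T * uniN a = 1 := by
  refine ⟨fromBlocks s 0 0 (-(t * (1 + a + a * a)))ᵀ,
    fromBlocks t 0 0 (-((1 + a + a * a) * s))ᵀ, ?_⟩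
  unfold uniN
  rw [fromBlocks_multiply, fromBlocks_multiply, fromBlocks_add]
  simp only [Matrix.mul_zero, Matrix.zero_mul, add_zero, zero_add, ← transpose_mul,
    ← transpose_add]
  rw [hst, add_comm, uni_g_hom a s t ha3 hst]
  simp [fromBlocks_one]

theorem uni_rank_add_le {m n : Type} [Fintype m] [Fintype n] [DecidableEq n]
    (A B : Matrix m n F) : (A + B).rank ≤ A.rank + B.rank := by
  have h : LinearMap.range (A + B).mulVecLin
      ≤ LinearMap.range A.mulVecLin ⊔ LinearMap.range B.mulVecLin := by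
    rintro _ ⟨v, rfl⟩
    rw [Matrix.mulVecLin_add, LinearMap.add_apply]
    exact Submodule.add_mem_sup ⟨v, rfl⟩ ⟨v, rfl⟩
  exact (Submodule.finrank_mono h).trans (Submodule.finrank_add_le_finrank_add_finrank _ _)

theorem uniN_rank (a : Matrix (Fin d) (Fin d) F) (ha3 : a * a * a = 0) (u w : Fin d → F)
    (haa : a * a = vecMulVec u w) : (uniN a * uniN a).rank ≤ 2 := by
  have h : uniN a * uniN a = vecMulVec (Sum.elim u 0) (Sum.elim w 0)
      + vecMulVec (Sum.elim 0 w) (Sum.elim 0 u) := by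
    rw [uniN_sq a ha3, haa]
    ext (i | i) (j | j) <;> simp [vecMulVec_apply, mul_comm]
  rw [h]
  calc (vecMulVec (Sum.elim u 0) (Sum.elim w 0)
      + vecMulVec (Sum.elim 0 w) (Sum.elim 0 u)).rank
      ≤ (vecMulVec (Sum.elim u (0 : Fin d → F)) (Sum.elim w (0 : Fin d → F))).rank
        + (vecMulVec (Sum.elim (0 : Fin d → F) w) (Sum.elim (0 : Fin d → F) u)).rank :=
        uni_rank_add_le _ _
    _ ≤ 1 + 1 := Nat.add_le_add (Matrix.rank_vecMulVec_le _ _) (Matrix.rank_vecMulVec_le _ _)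

theorem uniN_ne (a : Matrix (Fin d) (Fin d) F) (ha : a ≠ 0) : uniN a ≠ 0 := by
  intro h
  apply ha
  ext i j
  have := congrFun (congrFun h (Sum.inl i)) (Sum.inl j)
  simpa [uniN] using this

end alg

/-- [UNI1] `d` odd, `m ≡ 1 (mod 4)` -/
theorem pkgUni1 : PkgUni1.{u} := by
  intro F _ _ p _ _ hp2 d m hd4 hmodd hmd hdodd hm4
  have hp : p.Prime := Fact.out
  have h2 : (2 : F) ≠ 0 := by
    intro h
    have h' : ((2 : ℕ) : F) = 0 := by exact_mod_cast h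
    rw [CharP.cast_eq_zero_iff F p 2] at h'
    exact hp2 ((Nat.prime_dvd_prime_iff_eq hp Nat.prime_two).1 h')
  have hQ : Cfsg.Geo.IsNondegenerateQuadraticForm (Cfsg.quadFormPlus d F) :=
    (Cfsg.Agent.Lib.Helper84.OPar.pkgPlusQ F h2 d).1
  obtain ⟨a, s, t, u, w, ha3, ha0, hst, haa⟩ := exists_nil F d hdodd (by omega)
  have hA : (1 + a) * (1 + (-a + a * a)) = 1 := uni_inv a ha3
  let x : GL (Fin d ⊕ Fin d) F := Cfsg.Agent.Lib.Helper38.OPar.tGL (1 + a) (1 + (-a + a * a)) hA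
  have hxiso : x ∈ Cfsg.isometryGroup F (Cfsg.quadFormPlus d F) :=
    Cfsg.Agent.Lib.Helper38.OPar.tGL_iso _ _ hA
  have hxQ : ∀ v, Cfsg.quadFormPlus d F ((x : Matrix (Fin d ⊕ Fin d) (Fin d ⊕ Fin d) F) *ᵥ v)
      = Cfsg.quadFormPlus d F v :=
    (Cfsg.Agent.Lib.Helper38.OPar.mem_iso_iff _ x).1 hxiso
  have hxN : (x : Matrix (Fin d ⊕ Fin d) (Fin d ⊕ Fin d) F) = 1 + uniN a := by
    show Cfsg.Agent.Lib.Helper38.OPar.tM (1 + a) (1 + (-a + a * a)) = 1 + uniN a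
    unfold Cfsg.Agent.Lib.Helper38.OPar.tM uniN
    rw [← fromBlocks_one, fromBlocks_add]
    simp [transpose_add]
  have hN3 := uniN_cube a ha3
  have hN0 := uniN_ne a ha0
  have : Nonempty (Fin d ⊕ Fin d) := ⟨Sum.inl ⟨0, by omega⟩⟩
  -- `x` has order `p`
  have hxp : x ^ p = 1 := by
    apply Units.ext
    rw [Units.val_pow_eq_pow_val, hxN, Units.val_one,
      add_pow_char_of_commute p (Commute.one_left _), one_pow]
    have hp3 : 3 ≤ p := by
      have := hp.two_le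
      omega
    have h3 : uniN a ^ p = 0 := by
      obtain ⟨k, rfl⟩ : ∃ k, p = 3 + k := ⟨p - 3, by omega⟩
      rw [pow_add, pow_succ, pow_succ, pow_one, hN3, zero_mul]
    rw [h3, add_zero]
  have hx1 : x ≠ 1 := by
    intro h
    have h' : (x : Matrix (Fin d ⊕ Fin d) (Fin d ⊕ Fin d) F) = 1 := by rw [h]; rfl
    rw [hxN] at h'
    exact hN0 (by simpa using h')
  have hord : orderOf x = p := orderOf_eq_prime hxp hx1
  have hxom : x ∈ Cfsg.Geo.omegaGL (Cfsg.quadFormPlus d F) :=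
    Cfsg.Agent.Lib.Helper97.OHyp.pkgOddOmega F (Fin d ⊕ Fin d) _ hQ h2 x hxiso
      (by rw [hord]; exact hp.odd_of_ne_two hp2)
  refine ⟨x, hxom, hxp, hx1, ?_⟩
  intro W hWm hWnd hWinv
  -- the abstract data
  have hB := hQ.polar_bilinear
  let B : LinearMap.BilinForm F (Fin d ⊕ Fin d → F) :=
    LinearMap.mk₂ F (QuadraticMap.polar (Cfsg.quadFormPlus d F)) hB.add_left hB.smul_left
      hB.add_right hB.smul_right
  have hBdef : ∀ y z, B y z = QuadraticMap.polar (Cfsg.quadFormPlus d F) y z := fun _ _ => rfl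
  let n : (Fin d ⊕ Fin d → F) →ₗ[F] (Fin d ⊕ Fin d → F) := Matrix.toLin' (uniN a)
  have hn : ∀ v, n v = uniN a *ᵥ v := fun v => Matrix.toLin'_apply _ _
  have hxv : ∀ v, (x : Matrix (Fin d ⊕ Fin d) (Fin d ⊕ Fin d) F) *ᵥ v = v + n v := by
    intro v
    rw [hxN, Matrix.add_mulVec, Matrix.one_mulVec, hn]
  have hsymm : ∀ y z, B y z = B z y := by
    intro y z
    rw [hBdef, hBdef]
    exact QuadraticMap.polar_comm _ y z
  have hn3 : ∀ v, n (n (n v)) = 0 := by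
    intro v
    rw [hn, hn, hn, Matrix.mulVec_mulVec, Matrix.mulVec_mulVec, hN3, Matrix.zero_mulVec]
  have hiso : ∀ y z, B (y + n y) (z + n z) = B y z := by
    intro y z
    rw [hBdef, hBdef, ← hxv, ← hxv]
    unfold QuadraticMap.polar
    rw [← Matrix.mulVec_add, hxQ, hxQ, hxQ]
  have hkr : LinearMap.ker n ≤ LinearMap.range n := by
    obtain ⟨S, T, hST⟩ := uniN_hom a s t ha3 hst
    intro v hv
    rw [LinearMap.mem_ker, hn] at hv
    refine ⟨S *ᵥ v, ?_⟩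
    rw [hn, Matrix.mulVec_mulVec]
    have h1 : (uniN a * S + T * uniN a) *ᵥ v = v := by rw [hST, Matrix.one_mulVec]
    rw [Matrix.add_mulVec, ← Matrix.mulVec_mulVec v T, hv, Matrix.mulVec_zero, add_zero] at h1
    exact h1
  have hr2 : Module.finrank F ↥(LinearMap.range (n ∘ₗ n)) ≤ 2 := by
    have h1 : n ∘ₗ n = (uniN a * uniN a).mulVecLin := by
      refine LinearMap.ext fun v => ?_
      rw [LinearMap.comp_apply, hn, hn, Matrix.mulVec_mulVec, Matrix.mulVecLin_apply]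
    rw [h1]
    exact uniN_rank a ha3 u w haa
  have hWx : ∀ v ∈ W, (x : Matrix (Fin d ⊕ Fin d) (Fin d ⊕ Fin d) F) *ᵥ v ∈ W := by
    intro v hv
    have h1 : Matrix.toLin' (x : Matrix (Fin d ⊕ Fin d) (Fin d ⊕ Fin d) F) v ∈ W :=
      hWinv (Submodule.mem_map_of_mem hv)
    rwa [Matrix.toLin'_apply] at h1
  have hmapn : ∀ U : Submodule F (Fin d ⊕ Fin d → F),
      Inv (x : Matrix (Fin d ⊕ Fin d) (Fin d ⊕ Fin d) F) U → U.map n ≤ U := by
    intro U hU
    rintro _ ⟨v, hv, rfl⟩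
    have h1 : Matrix.toLin' (x : Matrix (Fin d ⊕ Fin d) (Fin d ⊕ Fin d) F) v ∈ U :=
      hU (Submodule.mem_map_of_mem hv)
    rw [Matrix.toLin'_apply, hxv] at h1
    have h3 : n v = (v + n v) - v := by abel
    rw [h3]
    exact U.sub_mem h1 hv
  -- the invariant complement
  have hdet : IsUnit (x : Matrix (Fin d ⊕ Fin d) (Fin d ⊕ Fin d) F).det :=
    (Matrix.isUnit_iff_isUnit_det _).1 x.isUnit
  have hTopNd : Nd (Cfsg.quadFormPlus d F) (⊤ : Submodule F (Fin d ⊕ Fin d → F)) := by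
    intro v _ hv
    obtain ⟨⟨y, hy⟩, ⟨z, hz⟩⟩ := hQ.nondegenerate v hv
    exact ⟨⟨y, Submodule.mem_top, hy⟩, ⟨z, Submodule.mem_top, hz⟩⟩
  have hTopInv : Inv (x : Matrix (Fin d ⊕ Fin d) (Fin d ⊕ Fin d) F)
      (⊤ : Submodule F (Fin d ⊕ Fin d → F)) := le_top
  obtain ⟨W', -, hW'inv, -, hperp, hsup, -⟩ :=
    Cfsg.Agent.Lib.Helper87.OHyp.pkgPerp F (Fin d ⊕ Fin d) _ hQ
      (x : Matrix (Fin d ⊕ Fin d) (Fin d ⊕ Fin d) F) hxQ hdet ⊤ W le_top hTopInv hWinv hTopNd hWnd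
  have hdisj : W ⊓ W' = ⊥ := by
    rw [eq_bot_iff]
    rintro v ⟨hv1, hv2⟩
    rw [Submodule.mem_bot]
    by_contra hne
    obtain ⟨⟨y, hy, hy'⟩, -⟩ := hWnd v hv1 hne
    exact hy' (hperp y hy v hv2)
  have hfin := mod_four_of_isom h2 B hsymm n hn3 hiso hkr hr2 W W' (hmapn W hWinv)
    (hmapn W' hW'inv) hsup hdisj (fun w hw hne => (hWnd w hw hne).1) (by rw [hWm]; exact hmodd)
  rw [hWm] at hfin
  omega

end Cfsg.Agent.Lib.Helper47.OPar
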